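import Mathlib
import Cfsg.Agent.Lib.Frobenius.Basic

/-!
# Fixed-point-free representations and Frobenius complements

* `exists_isFrobeniusComplement`: a fixed-point-free action on a non-trivial finite group makes the
  acting group a Frobenius complement.
* `exists_fpfAction_of_ringHom`, `exists_fpfAction_of_action`: changing the characteristic.
-/

set_option autoImplicit false

open scoped Classical

universe u

namespace CfsgLib.FCRep

/-- A fixed-point-free action on a non-trivial finite group exhibits a Frobenius complement. -/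
theorem exists_isFrobeniusComplement {H V : Type*} [Group H] [Finite H] [Nontrivial H] [Group V]
    [Finite V] [Nontrivial V] (φ : H →* MulAut V)
    (hφ : ∀ h : H, h ≠ 1 → ∀ v : V, φ h v = v → v = 1) :
    ∃ (L : Type) (_ : Group L) (_ : Finite L) (C : Subgroup L),
      Cfsg.IsFrobeniusComplement C ∧ Nonempty (H ≃* C) := by
  haveI : Finite (V ⋊[φ] H) := Finite.of_equiv _ SemidirectProduct.equivProd.symm
  let K : Subgroup (V ⋊[φ] H) := (SemidirectProduct.inl : V →* V ⋊[φ] H).range
  let C : Subgroup (V ⋊[φ] H) := (SemidirectProduct.inr : H →* V ⋊[φ] H).range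
  have hKn : K.Normal := ⟨by
    rintro _ ⟨v, rfl⟩ g
    exact ⟨(g * SemidirectProduct.inl v * g⁻¹).left, SemidirectProduct.ext (by simp) (by simp)⟩⟩
  haveI := hKn
  have hC : Cfsg.IsFrobeniusComplement C := by
    refine CfsgLib.Frobenius.isFrobeniusComplement_of_fpf K C ?_ ?_ ?_ ?_ ?_
    · refine (Subgroup.eq_bot_iff_forall _).2 ?_
      rintro x ⟨⟨v, rfl⟩, ⟨h, hh⟩⟩
      have h1 := congrArg SemidirectProduct.left hh
      simp only [SemidirectProduct.left_inr, SemidirectProduct.left_inl] at h1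
      rw [← h1, map_one]
    · refine eq_top_iff.2 fun x _ => ?_
      rw [← SemidirectProduct.inl_left_mul_inr_right x]
      exact mul_mem (Subgroup.mem_sup_left ⟨_, rfl⟩) (Subgroup.mem_sup_right ⟨_, rfl⟩)
    · intro h
      obtain ⟨v, hv⟩ := exists_ne (1 : V)
      have h1 : SemidirectProduct.inl v ∈ K := ⟨v, rfl⟩
      rw [h, Subgroup.mem_bot, ← map_one (SemidirectProduct.inl : V →* V ⋊[φ] H)] at h1
      exact hv (SemidirectProduct.inl_injective h1)
    · intro h
      obtain ⟨a, ha⟩ := exists_ne (1 : H)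
      have h1 : SemidirectProduct.inr a ∈ C := ⟨a, rfl⟩
      rw [h, Subgroup.mem_bot, ← map_one (SemidirectProduct.inr : H →* V ⋊[φ] H)] at h1
      exact ha (SemidirectProduct.inr_injective h1)
    · rintro _ ⟨a, rfl⟩ ha _ ⟨v, rfl⟩ hc
      have ha' : a ≠ 1 := fun h => ha (by rw [h, map_one])
      have h1 := congrArg SemidirectProduct.left hc
      simp at h1
      rw [hφ a ha' v h1, map_one]
  let f : V ⋊[φ] H →* Equiv.Perm (Fin (Nat.card (V ⋊[φ] H))) :=
    (Finite.equivFin (V ⋊[φ] H)).permCongrHom.toMonoidHom.comp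
      (MulAction.toPermHom (V ⋊[φ] H) (V ⋊[φ] H))
  have hf : Function.Injective f :=
    (Finite.equivFin (V ⋊[φ] H)).permCongrHom.injective.comp MulAction.toPerm_injective
  let e : (V ⋊[φ] H) ≃* f.range := MonoidHom.ofInjective hf
  refine ⟨f.range, inferInstance, inferInstance, C.map e.toMonoidHom, ⟨?_, ?_, ?_⟩, ?_⟩
  · exact fun h => hC.1 ((Subgroup.map_eq_bot_iff_of_injective C e.injective).1 h)
  · intro h
    refine hC.2.1 (Subgroup.eq_top_of_card_eq _ ?_)
    rw [← Subgroup.card_map_of_injective (f := e.toMonoidHom) e.injective, h, Subgroup.card_top]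
    exact (Nat.card_congr e.toEquiv).symm
  · intro g hg
    obtain ⟨g, rfl⟩ := e.surjective g
    refine (Subgroup.eq_bot_iff_forall _).2 ?_
    rintro x ⟨⟨y, hy, rfl⟩, hx⟩
    have hgC : g ∉ C := fun h => hg ⟨g, h, rfl⟩
    have h1 : g⁻¹ * y * g ∈ C := by
      replace hx := CfsgLib.Frobenius.mem_conj_smul.1 hx
      rw [MulEquiv.coe_toMonoidHom, ← map_inv, ← map_mul, ← map_mul] at hx
      obtain ⟨z, hz, hze⟩ := hx
      exact e.injective hze ▸ hz
    have h2 : y = 1 := by
      by_contra hy1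
      exact hgC (CfsgLib.Frobenius.mem_of_inter_conj hC hy hy1 h1)
    rw [h2, map_one]
  · exact ⟨(MonoidHom.ofInjective SemidirectProduct.inr_injective).trans
      (C.equivMapOfInjective _ e.injective)⟩

/-! ## The ideal of norm sums in a group ring -/

section normIdeal

variable (k : Type*) [CommRing k] (A : Type*) [Group A]

/-- The norm sum of `a` in the group ring. -/
noncomputable def normSum (a : A) : MonoidAlgebra k A :=
  ∑ i ∈ Finset.range (orderOf a), MonoidAlgebra.of k A (a ^ i)

/-- The left ideal spanned by all `N_a g`; it is two-sided. -/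
noncomputable def normIdeal : Ideal (MonoidAlgebra k A) :=
  Ideal.span {x | ∃ a g : A, a ≠ 1 ∧ x = normSum k A a * MonoidAlgebra.of k A g}

variable {k A}

theorem normSum_mul_mem {a : A} (ha : a ≠ 1) (y : MonoidAlgebra k A) :
    normSum k A a * y ∈ normIdeal k A := by
  induction y using MonoidAlgebra.induction_on with
  | of g => exact Ideal.subset_span ⟨a, g, ha, rfl⟩
  | add f g hf hg => rw [mul_add]; exact add_mem hf hg
  | smul c f hf =>
    rw [mul_smul_comm, Algebra.smul_def]
    exact Ideal.mul_mem_left _ _ hf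

theorem normIdeal_mul_mem {x : MonoidAlgebra k A} (hx : x ∈ normIdeal k A) (z : MonoidAlgebra k A) :
    x * z ∈ normIdeal k A := by
  induction hx using Submodule.span_induction with
  | mem y hy => obtain ⟨a, g, ha, rfl⟩ := hy; rw [mul_assoc]; exact normSum_mul_mem ha _
  | zero => rw [zero_mul]; exact zero_mem _
  | add y w _ _ hy hw => rw [add_mul]; exact add_mem hy hw
  | smul c y _ hy => rw [smul_eq_mul, mul_assoc]; exact Ideal.mul_mem_left _ _ hy

theorem map_normSum {k' : Type*} [CommRing k'] (f : k →+* k') (a : A) :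
    MonoidAlgebra.mapRingHom A f (normSum k A a) = normSum k' A a := by
  rw [normSum, normSum, map_sum]
  exact Finset.sum_congr rfl fun i _ => by simp

theorem map_mem_normIdeal {k' : Type*} [CommRing k'] (f : k →+* k') {x : MonoidAlgebra k A}
    (hx : x ∈ normIdeal k A) : MonoidAlgebra.mapRingHom A f x ∈ normIdeal k' A := by
  induction hx using Submodule.span_induction with
  | mem y hy =>
    obtain ⟨a, g, ha, rfl⟩ := hy
    rw [map_mul, map_normSum]
    exact normSum_mul_mem ha _
  | zero => rw [map_zero]; exact zero_mem _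
  | add y w _ _ hy hw => rw [map_add]; exact add_mem hy hw
  | smul c y _ hy => rw [smul_eq_mul, map_mul]; exact Ideal.mul_mem_left _ _ hy

/-- A ring homomorphism killing all norm sums kills the norm ideal. -/
theorem normIdeal_le_ker {S : Type*} [Ring S] (f : MonoidAlgebra k A →+* S)
    (h : ∀ a : A, a ≠ 1 → f (normSum k A a) = 0) : normIdeal k A ≤ RingHom.ker f := by
  refine Ideal.span_le.2 ?_
  rintro _ ⟨a, g, ha, rfl⟩
  rw [SetLike.mem_coe, RingHom.mem_ker, map_mul, h a ha, zero_mul]

theorem of_mul_normSum [Finite A] (a : A) :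
    MonoidAlgebra.of k A a * normSum k A a = normSum k A a := by
  rw [normSum, Finset.mul_sum]
  simp only [← map_mul, ← pow_succ']
  have h1 := Finset.sum_range_succ (fun i => MonoidAlgebra.of k A (a ^ i)) (orderOf a)
  rw [Finset.sum_range_succ'] at h1
  simp only [pow_orderOf_eq_one, pow_zero] at h1
  exact add_right_cancel h1

theorem normSum_mul_self [Finite A] (a : A) :
    normSum k A a * normSum k A a = orderOf a • normSum k A a := by
  conv_lhs => enter [1]; rw [normSum]
  rw [Finset.sum_mul]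
  have h : ∀ i, MonoidAlgebra.of k A (a ^ i) * normSum k A a = normSum k A a := by
    intro i
    induction i with
    | zero => rw [pow_zero, map_one, one_mul]
    | succ i ih => rw [pow_succ, map_mul, mul_assoc, of_mul_normSum, ih]
  rw [Finset.sum_congr rfl fun i _ => h i, Finset.sum_const, Finset.card_range]

end normIdeal

/-! ## Changing the characteristic -/

variable {A : Type*} [Group A] [Finite A]

theorem coeff_mapRingHom' {M : Type*} [Monoid M] {k k' : Type*} [CommRing k] [CommRing k']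
    (f : k →+* k') (x : MonoidAlgebra k M) (m : M) :
    (MonoidAlgebra.mapRingHom M f x).coeff m = f (x.coeff m) := by
  induction x using MonoidAlgebra.induction_linear with
  | zero => simp
  | add x y hx hy => rw [map_add, MonoidAlgebra.coeff_add, MonoidAlgebra.coeff_add, Finsupp.add_apply,
      Finsupp.add_apply, hx, hy, map_add]
  | single g c => simp [Finsupp.single_apply, apply_ite f]

theorem coeff_natCast_mul {M : Type*} [Monoid M] {k : Type*} [CommRing k] (n : ℕ)
    (x : MonoidAlgebra k M) (m : M) : ((n : MonoidAlgebra k M) * x).coeff m = (n : k) * x.coeff m := by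
  rw [MonoidAlgebra.natCast_def, MonoidAlgebra.coeff_single_one_mul]

theorem exists_eq_natCast_mul_of_mem_ker {r : ℕ} [NeZero r] (k : ℕ) (x : MonoidAlgebra (ZMod (r ^ (k + 1))) A)
    (hx : MonoidAlgebra.mapRingHom A
      (ZMod.castHom (dvd_pow_self r (Nat.succ_ne_zero k)) (ZMod r)) x = 0) :
    ∃ y : MonoidAlgebra (ZMod (r ^ (k + 1))) A, x = (r : MonoidAlgebra (ZMod (r ^ (k + 1))) A) * y := by
  haveI := Fintype.ofFinite A
  have hc : ∀ g : A, ∃ c : ZMod (r ^ (k + 1)), x.coeff g = r * c := by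
    intro g
    haveI : NeZero (r ^ (k + 1)) := ⟨pow_ne_zero _ (NeZero.ne r)⟩
    have h1 := congrArg (fun z : MonoidAlgebra (ZMod r) A => z.coeff g) hx
    simp only [coeff_mapRingHom', MonoidAlgebra.coeff_zero, Finsupp.zero_apply] at h1
    rw [← ZMod.natCast_zmod_val (x.coeff g), map_natCast, ZMod.natCast_eq_zero_iff] at h1
    obtain ⟨c, hc⟩ := h1
    exact ⟨(c : ℕ), by rw [← ZMod.natCast_zmod_val (x.coeff g), hc, Nat.cast_mul]⟩
  choose c hc using hc
  refine ⟨∑ g : A, MonoidAlgebra.single g (c g), ?_⟩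
  rw [Finset.mul_sum]
  apply MonoidAlgebra.coeff_injective
  ext g
  rw [MonoidAlgebra.coeff_sum, Finsupp.finsetSum_apply, hc g,
    Finset.sum_eq_single g (fun b _ hb => ?_) (fun h => absurd (Finset.mem_univ g) h)]
  · rw [coeff_natCast_mul, MonoidAlgebra.coeff_single, Finsupp.single_eq_same]
  · rw [coeff_natCast_mul, MonoidAlgebra.coeff_single, Finsupp.single_eq_of_ne hb.symm, mul_zero]

/-- If the norm ideal over `F_r` is proper (`r` not dividing the order), it contains no non-zero
integer over `ℤ`. -/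
theorem natCast_notMem_normIdeal {r : ℕ} [hr : Fact r.Prime] (hrA : ¬ r ∣ Nat.card A)
    (h1 : (1 : MonoidAlgebra (ZMod r) A) ∉ normIdeal (ZMod r) A) (m : ℕ) (hm : m ≠ 0) :
    (m : MonoidAlgebra ℤ A) ∉ normIdeal ℤ A := by
  haveI := Fintype.ofFinite A
  haveI : NeZero (Nat.card A : ZMod r) := ⟨by rwa [ne_eq, ZMod.natCast_eq_zero_iff]⟩
  obtain ⟨C, hC⟩ := exists_isCompl (normIdeal (ZMod r) A)
  obtain ⟨i, hi, c, hc, hic⟩ := Submodule.mem_sup.1
    (show (1 : MonoidAlgebra (ZMod r) A) ∈ normIdeal (ZMod r) A ⊔ C by rw [hC.sup_eq_top]; trivial)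
  have hIC : ∀ x, x ∈ normIdeal (ZMod r) A → x ∈ C → x = 0 :=
    fun x hx hx' => Submodule.disjoint_def.1 hC.disjoint x hx hx'
  have hIc : ∀ x, x ∈ normIdeal (ZMod r) A → x * c = 0 :=
    fun x hx => hIC _ (normIdeal_mul_mem hx c) (Ideal.mul_mem_left _ _ hc)
  have hcc : IsIdempotentElem c := by
    have h2 : c * i + c * c = c := by rw [← mul_add, hic, mul_one]
    have h3 : c * i = 0 := hIC _ (Ideal.mul_mem_left _ _ hi) (by
      rw [eq_sub_of_add_eq h2]
      exact sub_mem hc (Ideal.mul_mem_left _ _ hc))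
    rw [h3, zero_add] at h2
    exact h2
  have hc0 : c ≠ 0 := fun h => h1 (by rw [← hic, h, add_zero]; exact hi)
  intro hmem
  obtain ⟨j, m', hm', rfl⟩ := Nat.exists_eq_pow_mul_and_not_dvd hm r hr.out.ne_one
  let R := MonoidAlgebra (ZMod (r ^ (j + 1))) A
  let red : R →+* MonoidAlgebra (ZMod r) A := MonoidAlgebra.mapRingHom A
    (ZMod.castHom (dvd_pow_self r (Nat.succ_ne_zero j)) (ZMod r))
  have hrn : ((r : R)) ^ (j + 1) = 0 := by
    rw [← Nat.cast_pow, ← map_natCast (algebraMap (ZMod (r ^ (j + 1))) R), ZMod.natCast_self, map_zero]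
  have hker : ∀ x ∈ RingHom.ker red, IsNilpotent x := by
    intro x hx
    obtain ⟨y, rfl⟩ := exists_eq_natCast_mul_of_mem_ker j x hx
    refine ⟨j + 1, ?_⟩
    rw [(Nat.cast_commute r y).mul_pow, hrn, zero_mul]
  have hsurj : Function.Surjective red := by
    intro y
    induction y using MonoidAlgebra.induction_linear with
    | zero => exact ⟨0, map_zero _⟩
    | add y z hy hz =>
      obtain ⟨a, rfl⟩ := hy; obtain ⟨b, rfl⟩ := hz
      exact ⟨a + b, map_add _ _ _⟩
    | single g d =>
      obtain ⟨d', hd'⟩ := ZMod.castHom_surjective (dvd_pow_self r (Nat.succ_ne_zero j)) d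
      exact ⟨MonoidAlgebra.single g d', by
        show MonoidAlgebra.mapRingHom A _ (MonoidAlgebra.single g d') = _
        rw [MonoidAlgebra.mapRingHom_single, hd']⟩
  obtain ⟨e, hee, hered⟩ := exists_isIdempotentElem_eq_of_ker_isNilpotent red hker c (hsurj c) hcc
  -- the norm sums annihilate `R e`
  have key : ∀ a : A, a ≠ 1 → ∀ y : R, y * e = y → normSum (ZMod (r ^ (j + 1))) A a * y = 0 := by
    intro a ha
    have hunit : IsUnit ((orderOf a : ℕ) : ZMod (r ^ (j + 1))) := by
      rw [ZMod.isUnit_iff_coprime]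
      refine Nat.Coprime.pow_right _ ((Nat.Prime.coprime_iff_not_dvd hr.out).2 fun h => hrA ?_).symm
      exact h.trans (orderOf_dvd_natCard a)
    obtain ⟨u, hu⟩ := hunit
    set N := normSum (ZMod (r ^ (j + 1))) A a with hN
    suffices h : ∀ l : ℕ, ∀ y : R, y * e = y → ∃ z : R, N * y = (r : R) ^ l * z by
      intro y hy
      obtain ⟨z, hz⟩ := h (j + 1) y hy
      rw [hz, hrn, zero_mul]
    intro l
    induction l with
    | zero => intro y _; exact ⟨N * y, by rw [pow_zero, one_mul]⟩
    | succ l ih =>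
      intro y hy
      have hred : red (N * y) = 0 := by
        rw [← hy, ← mul_assoc, map_mul, hered]
        refine hIc _ ?_
        rw [map_mul, map_normSum]
        exact normSum_mul_mem ha _
      obtain ⟨x, hx⟩ := exists_eq_natCast_mul_of_mem_ker j (N * y) hred
      have hxe : N * y = (r : R) * (x * e) := by rw [← mul_assoc, ← hx, mul_assoc, hy]
      let y' : R := (↑u⁻¹ : ZMod (r ^ (j + 1))) • (x * e)
      have h2 : N * y = (r : R) * (N * y') := by
        have h3 : (orderOf a : ℕ) • (N * y) = (r : R) * (N * (x * e)) := by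
          rw [← smul_mul_assoc, ← normSum_mul_self, ← hN, mul_assoc, hxe, ← mul_assoc, ← mul_assoc,
            ← (Nat.cast_commute r N).eq, mul_assoc, mul_assoc]
        rw [← Nat.cast_smul_eq_nsmul (ZMod (r ^ (j + 1))), ← hu] at h3
        show N * y = (r : R) * (N * ((↑u⁻¹ : ZMod (r ^ (j + 1))) • (x * e)))
        rw [mul_smul_comm, mul_smul_comm, ← h3, smul_smul, Units.inv_mul, one_smul]
      obtain ⟨z, hz⟩ := ih y' (by
        show ((↑u⁻¹ : ZMod (r ^ (j + 1))) • (x * e)) * e = _
        rw [smul_mul_assoc, mul_assoc, hee.eq])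
      exact ⟨z, by rw [h2, hz, ← mul_assoc, ← pow_succ']⟩
  have hIe : ∀ x ∈ normIdeal (ZMod (r ^ (j + 1))) A, x * e = 0 := by
    intro x hx
    induction hx using Submodule.span_induction with
    | mem y hy =>
      obtain ⟨a, g, ha, rfl⟩ := hy
      rw [mul_assoc]
      exact key a ha _ (by rw [mul_assoc, hee.eq])
    | zero => exact zero_mul e
    | add y w _ _ hy hw => rw [add_mul, hy, hw, add_zero]
    | smul d y _ hy => rw [smul_eq_mul, mul_assoc, hy, mul_zero]
  have h0 := hIe _ (map_mem_normIdeal (Int.castRingHom (ZMod (r ^ (j + 1)))) hmem)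
  rw [map_natCast] at h0
  obtain ⟨g, hg⟩ : ∃ g : A, c.coeff g ≠ 0 := by
    by_contra h
    push Not at h
    exact hc0 (MonoidAlgebra.coeff_injective (Finsupp.ext h))
  have hg' : IsUnit (e.coeff g) := by
    haveI : NeZero (r ^ (j + 1)) := ⟨pow_ne_zero _ hr.out.ne_zero⟩
    rw [← hered, coeff_mapRingHom', ← ZMod.natCast_zmod_val (e.coeff g), map_natCast, ne_eq,
      ZMod.natCast_eq_zero_iff] at hg
    rw [← ZMod.natCast_zmod_val (e.coeff g), ZMod.isUnit_iff_coprime]
    exact Nat.Coprime.pow_right _ ((Nat.Prime.coprime_iff_not_dvd hr.out).2 hg).symm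
  have h4 : ((r ^ j * m' : ℕ) : ZMod (r ^ (j + 1))) * e.coeff g = 0 := by
    rw [← coeff_natCast_mul]
    exact (congrArg (fun z : MonoidAlgebra (ZMod (r ^ (j + 1))) A => z.coeff g) h0).trans (by simp)
  rw [hg'.mul_left_eq_zero, ZMod.natCast_eq_zero_iff, pow_succ] at h4
  exact hm' (Nat.dvd_of_mul_dvd_mul_left (pow_pos hr.out.pos j) h4)

/-- If the norm ideal contains no non-zero integer over `ℤ`, it is proper modulo every prime. -/
theorem one_notMem_normIdeal {ℓ : ℕ} [hℓ : Fact ℓ.Prime]
    (h : ∀ m : ℕ, m ≠ 0 → (m : MonoidAlgebra ℤ A) ∉ normIdeal ℤ A) :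
    (1 : MonoidAlgebra (ZMod ℓ) A) ∉ normIdeal (ZMod ℓ) A := by
  haveI := Fintype.ofFinite A
  intro hone
  let R := MonoidAlgebra ℤ A
  let f : R →+* MonoidAlgebra (ZMod ℓ) A := MonoidAlgebra.mapRingHom A (Int.castRingHom (ZMod ℓ))
  have hlift : ∀ x ∈ normIdeal (ZMod ℓ) A, ∃ y ∈ normIdeal ℤ A, f y = x := by
    intro x hx
    induction hx using Submodule.span_induction with
    | mem y hy =>
      obtain ⟨a, g, ha, rfl⟩ := hy
      refine ⟨normSum ℤ A a * MonoidAlgebra.of ℤ A g, normSum_mul_mem ha _, ?_⟩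
      show MonoidAlgebra.mapRingHom A (Int.castRingHom (ZMod ℓ)) _ = _
      rw [map_mul, map_normSum]
      simp [MonoidAlgebra.of_apply]
    | zero => exact ⟨0, zero_mem _, map_zero _⟩
    | add y w _ _ hy hw =>
      obtain ⟨a, ha, rfl⟩ := hy; obtain ⟨b, hb, rfl⟩ := hw
      exact ⟨a + b, add_mem ha hb, map_add _ _ _⟩
    | smul d y _ hy =>
      obtain ⟨a, ha, rfl⟩ := hy
      obtain ⟨d', rfl⟩ : ∃ d', f d' = d := by
        induction d using MonoidAlgebra.induction_linear with
        | zero => exact ⟨0, map_zero _⟩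
        | add s t hs ht =>
          obtain ⟨u, rfl⟩ := hs; obtain ⟨v, rfl⟩ := ht
          exact ⟨u + v, map_add _ _ _⟩
        | single g c =>
          obtain ⟨c', rfl⟩ := ZMod.intCast_surjective c
          exact ⟨MonoidAlgebra.single g c', by
            show MonoidAlgebra.mapRingHom A _ (MonoidAlgebra.single g c') = _
            rw [MonoidAlgebra.mapRingHom_single, eq_intCast]⟩
      exact ⟨d' * a, Ideal.mul_mem_left _ _ ha, by rw [map_mul, smul_eq_mul]⟩
  let P : Submodule ℤ R := (normIdeal ℤ A).restrictScalars ℤ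
  have hfin : Module.Finite ℤ R := Module.Finite.equiv (MonoidAlgebra.coeffLinearEquiv ℤ (M := A) (S := ℤ)).symm
  haveI := hfin
  have hle : (⊤ : Submodule ℤ (R ⧸ P)) ≤ (Ideal.span {(ℓ : ℤ)}) • ⊤ := by
    rintro q -
    obtain ⟨z, rfl⟩ := Submodule.Quotient.mk_surjective P q
    obtain ⟨y, hy, hfy⟩ := hlift _ (normIdeal_mul_mem hone (f z))
    rw [one_mul] at hfy
    have hk : ∀ g : A, (ℓ : ℤ) ∣ (z - y).coeff g := by
      intro g
      have h1 := congrArg (fun w : MonoidAlgebra (ZMod ℓ) A => w.coeff g)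
        (show f (z - y) = 0 by rw [map_sub, hfy, sub_self])
      simp only [f, coeff_mapRingHom', MonoidAlgebra.coeff_zero, Finsupp.zero_apply, eq_intCast] at h1
      exact (ZMod.intCast_zmod_eq_zero_iff_dvd _ _).1 h1
    choose d hd using hk
    have h2 : z = y + (ℓ : ℤ) • ∑ g : A, MonoidAlgebra.single g (d g) := by
      rw [← sub_eq_iff_eq_add']
      apply MonoidAlgebra.coeff_injective
      ext g
      rw [hd g]
      simp [coeff_natCast_mul, MonoidAlgebra.coeff_sum, Finsupp.finsetSum_apply, Finsupp.single_apply]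
    rw [h2, Submodule.Quotient.mk_add, (Submodule.Quotient.mk_eq_zero P).2 hy, zero_add,
      Submodule.Quotient.mk_smul]
    exact Submodule.smul_mem_smul (Ideal.mem_span_singleton_self _) trivial
  obtain ⟨d, hd1, hd⟩ := Submodule.exists_sub_one_mem_and_smul_eq_zero_of_fg_of_le_smul
    (Ideal.span {(ℓ : ℤ)}) ⊤ Module.Finite.fg_top hle
  have hd0 : d ≠ 0 := by
    rintro rfl
    rw [Ideal.mem_span_singleton, zero_sub, dvd_neg] at hd1
    have := Int.natCast_dvd_natCast.1 (by simpa using hd1 : ((ℓ : ℕ) : ℤ) ∣ ((1 : ℕ) : ℤ))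
    exact hℓ.out.ne_one (Nat.dvd_one.1 this)
  have h5 : (d : R) ∈ normIdeal ℤ A := by
    have := hd (Submodule.Quotient.mk (1 : R)) trivial
    rw [← Submodule.Quotient.mk_smul, Submodule.Quotient.mk_eq_zero] at this
    rwa [zsmul_eq_mul, mul_one] at this
  refine h d.natAbs (Int.natAbs_ne_zero.2 hd0) ?_
  rcases Int.natAbs_eq d with e | e
  · rw [e, Int.cast_natCast] at h5; exact h5
  · rw [e, Int.cast_neg, Int.cast_natCast] at h5; exact (neg_mem_iff).1 h5

/-- A proper norm ideal over `F_ℓ` gives a fixed-point-free module. -/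
theorem exists_fpf_of_one_notMem {ℓ : ℕ} [hℓ : Fact ℓ.Prime] (hℓA : ¬ ℓ ∣ Nat.card A)
    (h : (1 : MonoidAlgebra (ZMod ℓ) A) ∉ normIdeal (ZMod ℓ) A) :
    ∃ ρ : Representation (ZMod ℓ) A (MonoidAlgebra (ZMod ℓ) A ⧸ normIdeal (ZMod ℓ) A),
      Nontrivial (MonoidAlgebra (ZMod ℓ) A ⧸ normIdeal (ZMod ℓ) A) ∧
      ∀ a : A, a ≠ 1 → Function.Injective (fun v => ρ a v - v) := by
  let R := MonoidAlgebra (ZMod ℓ) A
  let ρ : Representation (ZMod ℓ) A (R ⧸ normIdeal (ZMod ℓ) A) :=
    { toFun := fun a => DistribMulAction.toLinearMap (ZMod ℓ) (R ⧸ normIdeal (ZMod ℓ) A)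
        (MonoidAlgebra.of (ZMod ℓ) A a)
      map_one' := LinearMap.ext fun v => by
        show MonoidAlgebra.of (ZMod ℓ) A 1 • v = v
        rw [map_one, one_smul]
      map_mul' := fun a b => LinearMap.ext fun v => by
        show MonoidAlgebra.of (ZMod ℓ) A (a * b) • v =
          MonoidAlgebra.of (ZMod ℓ) A a • MonoidAlgebra.of (ZMod ℓ) A b • v
        rw [map_mul, mul_smul] }
  refine ⟨ρ, ⟨⟨Submodule.Quotient.mk 1, 0, fun e => h ((Submodule.Quotient.mk_eq_zero _).1 e)⟩⟩,
    fun a ha => ?_⟩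
  intro v w hvw
  rw [← sub_eq_zero]
  set d := v - w with hd
  have h1 : MonoidAlgebra.of (ZMod ℓ) A a • d = d := by
    have : ρ a v - v = ρ a w - w := hvw
    have e : ρ a d = d := by rw [hd, map_sub]; linear_combination (norm := abel) this
    exact e
  have h2 : ∀ i : ℕ, MonoidAlgebra.of (ZMod ℓ) A (a ^ i) • d = d := by
    intro i
    induction i with
    | zero => rw [pow_zero, map_one, one_smul]
    | succ i ih => rw [pow_succ, map_mul, mul_smul, h1, ih]
  have h3 : normSum (ZMod ℓ) A a • d = (orderOf a : ZMod ℓ) • d := by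
    rw [normSum, Finset.sum_smul, Finset.sum_congr rfl fun i _ => h2 i, Finset.sum_const,
      Finset.card_range, Nat.cast_smul_eq_nsmul]
  have h4 : normSum (ZMod ℓ) A a • d = 0 := by
    obtain ⟨z, hz⟩ := Submodule.Quotient.mk_surjective _ d
    rw [← hz, ← Submodule.Quotient.mk_smul, Submodule.Quotient.mk_eq_zero]
    exact normSum_mul_mem ha z
  rw [h4, eq_comm, smul_eq_zero] at h3
  refine h3.resolve_left fun h5 => hℓA ?_
  exact ((ZMod.natCast_eq_zero_iff _ _).1 h5).trans (orderOf_dvd_natCard a)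

end CfsgLib.FCRep

namespace CfsgLib.FCRep

/-- The norm ideal over `ℤ` contains no non-zero integer. -/
def NormFree (A : Type*) [Group A] : Prop :=
  ∀ m : ℕ, m ≠ 0 → (m : MonoidAlgebra ℤ A) ∉ normIdeal ℤ A

variable {A : Type*} [Group A] [Finite A]

/-- A fixed-point-free linear action gives a Frobenius complement. -/
theorem exists_isFrobeniusComplement_of_rep [Nontrivial A] {k V : Type*} [CommRing k] [AddCommGroup V]
    [Module k V] [Finite V] [Nontrivial V] (ρ : Representation k A V)
    (hρ : ∀ a : A, a ≠ 1 → ∀ v : V, ρ a v = v → v = 0) :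
    ∃ (L : Type) (_ : Group L) (_ : Finite L) (C : Subgroup L),
      Cfsg.IsFrobeniusComplement C ∧ Nonempty (A ≃* C) := by
  let φ : A →* MulAut (Multiplicative V) :=
    { toFun := fun a => AddEquiv.toMultiplicative
        { toFun := ρ a
          invFun := ρ a⁻¹
          left_inv := fun v => by
            rw [← Module.End.mul_apply, ← map_mul, inv_mul_cancel, map_one, Module.End.one_apply]
          right_inv := fun v => by
            rw [← Module.End.mul_apply, ← map_mul, mul_inv_cancel, map_one, Module.End.one_apply]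
          map_add' := map_add (ρ a) }
      map_one' := MulEquiv.ext fun v => by
        show Multiplicative.ofAdd (ρ 1 v.toAdd) = v
        rw [map_one, Module.End.one_apply, ofAdd_toAdd]
      map_mul' := fun a b => MulEquiv.ext fun v => by
        show Multiplicative.ofAdd (ρ (a * b) v.toAdd) = Multiplicative.ofAdd (ρ a (ρ b v.toAdd))
        rw [map_mul, Module.End.mul_apply] }
  haveI : Finite (Multiplicative V) := Finite.of_equiv V Multiplicative.ofAdd
  haveI : Nontrivial (Multiplicative V) := Multiplicative.ofAdd.injective.nontrivial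
  exact exists_isFrobeniusComplement φ fun a ha v hv => by
    have : ρ a v.toAdd = v.toAdd := congrArg Multiplicative.toAdd hv
    exact Multiplicative.toAdd.injective (hρ a ha _ this)

theorem exists_fpf_rep_of_normFree (h : NormFree A) (ℓ : ℕ) [Fact ℓ.Prime] (hℓA : ¬ ℓ ∣ Nat.card A) :
    ∃ ρ : Representation (ZMod ℓ) A (MonoidAlgebra (ZMod ℓ) A ⧸ normIdeal (ZMod ℓ) A),
      Nontrivial (MonoidAlgebra (ZMod ℓ) A ⧸ normIdeal (ZMod ℓ) A) ∧
      ∀ a : A, a ≠ 1 → Function.Injective (fun v => ρ a v - v) :=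
  exists_fpf_of_one_notMem hℓA (one_notMem_normIdeal h)

omit [Finite A] in
theorem finite_quotient_normIdeal [Finite A] (ℓ : ℕ) [Fact ℓ.Prime] :
    Finite (MonoidAlgebra (ZMod ℓ) A ⧸ normIdeal (ZMod ℓ) A) := by
  haveI := Fintype.ofFinite A
  haveI : Finite (MonoidAlgebra (ZMod ℓ) A) :=
    Finite.of_equiv (A →₀ ZMod ℓ) (MonoidAlgebra.coeffEquiv (R := ZMod ℓ) (M := A)).symm
  exact Finite.of_surjective _ (Submodule.Quotient.mk_surjective _)

theorem exists_prime_not_dvd (n : ℕ) [NeZero n] : ∃ ℓ : ℕ, ℓ.Prime ∧ ¬ ℓ ∣ n := by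
  obtain ⟨ℓ, hle, hℓ⟩ := Nat.exists_infinite_primes (n + 1)
  exact ⟨ℓ, hℓ, fun h => by have := Nat.le_of_dvd (NeZero.pos n) h; omega⟩

theorem exists_isFrobeniusComplement_of_normFree [Nontrivial A] (h : NormFree A) :
    ∃ (L : Type) (_ : Group L) (_ : Finite L) (C : Subgroup L),
      Cfsg.IsFrobeniusComplement C ∧ Nonempty (A ≃* C) := by
  haveI : NeZero (Nat.card A) := ⟨Nat.card_pos.ne'⟩
  obtain ⟨ℓ, hℓ, hℓA⟩ := exists_prime_not_dvd (Nat.card A)
  haveI : Fact ℓ.Prime := ⟨hℓ⟩
  obtain ⟨ρ, hV, hρ⟩ := exists_fpf_rep_of_normFree h ℓ hℓA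
  haveI := hV
  haveI := finite_quotient_normIdeal (A := A) ℓ
  refine exists_isFrobeniusComplement_of_rep ρ fun a ha v hv => hρ a ha ?_
  show ρ a v - v = ρ a 0 - 0
  rw [hv, sub_self, map_zero, sub_zero]

/-- A group with an embedding into the units of a domain of characteristic zero is norm-free. -/
theorem normFree_of_monoidHom {D : Type*} [Ring D] [IsDomain D] [CharZero D] (f : A →* D)
    (hf : Function.Injective f) : NormFree A := by
  intro m hm hmem
  let F : MonoidAlgebra ℤ A →+* D := (MonoidAlgebra.lift ℤ D A f).toRingHom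
  have h0 : F (m : MonoidAlgebra ℤ A) = 0 := by
    refine normIdeal_le_ker F (fun a ha => ?_) hmem
    show MonoidAlgebra.lift ℤ D A f (normSum ℤ A a) = 0
    rw [normSum, map_sum]
    simp only [MonoidAlgebra.lift_of, map_pow]
    have h1 : (∑ i ∈ Finset.range (orderOf a), f a ^ i) * (f a - 1) = 0 := by
      rw [geom_sum_mul, ← map_pow, pow_orderOf_eq_one, map_one, sub_self]
    refine (mul_eq_zero.1 h1).resolve_right fun h2 => ha (hf ?_)
    rw [map_one, sub_eq_zero.1 h2]
  rw [map_natCast, Nat.cast_eq_zero] at h0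
  exact hm h0

/-- A nontrivial finite group embedded in the units of a domain of prime characteristic is a
Frobenius complement. -/
theorem exists_isFrobeniusComplement_of_monoidHom_charP [Nontrivial A] {D : Type*} [Ring D] [IsDomain D]
    (p : ℕ) [Fact p.Prime] [CharP D p] (f : A →* D) (hf : Function.Injective f) :
    ∃ (L : Type) (_ : Group L) (_ : Finite L) (C : Subgroup L),
      Cfsg.IsFrobeniusComplement C ∧ Nonempty (A ≃* C) := by
  haveI := Fintype.ofFinite A
  letI : Algebra (ZMod p) D := ZMod.algebra D p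
  let F : MonoidAlgebra (ZMod p) A →ₐ[ZMod p] D := MonoidAlgebra.lift (ZMod p) D A f
  let V := LinearMap.range F.toLinearMap
  haveI : Finite (MonoidAlgebra (ZMod p) A) :=
    Finite.of_equiv (A →₀ ZMod p) (MonoidAlgebra.coeffEquiv (R := ZMod p) (M := A)).symm
  haveI : Finite V := Finite.of_surjective F.toLinearMap.rangeRestrict F.toLinearMap.surjective_rangeRestrict
  haveI : Nontrivial V := ⟨⟨⟨1, 1, map_one F⟩, 0, fun e => one_ne_zero (congrArg Subtype.val e : (1 : D) = 0)⟩⟩
  let ρ : Representation (ZMod p) A V :=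
    { toFun := fun a => LinearMap.restrict (LinearMap.mulLeft (ZMod p) (f a)) (p := V) (q := V) (by
        rintro _ ⟨x, rfl⟩
        exact ⟨MonoidAlgebra.of (ZMod p) A a * x, by
          show F (_ * x) = f a * F x
          rw [map_mul, MonoidAlgebra.lift_of]⟩)
      map_one' := LinearMap.ext fun v => Subtype.ext (by
        show f 1 * (v : D) = v
        rw [map_one, one_mul])
      map_mul' := fun a b => LinearMap.ext fun v => Subtype.ext (by
        show f (a * b) * (v : D) = f a * (f b * v)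
        rw [map_mul, mul_assoc]) }
  refine exists_isFrobeniusComplement_of_rep ρ fun a ha v hv => Subtype.ext ?_
  have h1 : (f a - 1) * (v : D) = 0 := by
    rw [sub_mul, one_mul, show f a * (v : D) = v from congrArg Subtype.val hv, sub_self]
  refine (mul_eq_zero.1 h1).resolve_left fun h2 => ha (hf ?_)
  rw [map_one, sub_eq_zero.1 h2]

end CfsgLib.FCRep
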