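import Mathlib
import Cfsg.Agent.Lib.FCRep.Basic
import Cfsg.Agent.Lib.Frobenius.Kernel

/-!
# Every Frobenius complement is norm-free, and products of coprime norm-free groups
-/

set_option autoImplicit false

open scoped Classical TensorProduct

namespace CfsgLib.FCRep

theorem NormFree.of_injective {A B : Type*} [Group A] [Group B] (h : NormFree B) (f : A →* B)
    (hf : Function.Injective f) : NormFree A := by
  intro m hm hmem
  let F : MonoidAlgebra ℤ A →+* MonoidAlgebra ℤ B := MonoidAlgebra.mapDomainRingHom ℤ f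
  have key : ∀ x ∈ normIdeal ℤ A, F x ∈ normIdeal ℤ B := by
    intro x hx
    induction hx using Submodule.span_induction with
    | mem y hy =>
      obtain ⟨a, g, ha, rfl⟩ := hy
      have h1 : F (normSum ℤ A a) = normSum ℤ B (f a) := by
        rw [normSum, normSum, map_sum, orderOf_injective f hf a]
        exact Finset.sum_congr rfl fun i _ => by simp [F]
      rw [map_mul, h1]
      exact normSum_mul_mem (fun e => ha (hf (e.trans (map_one f).symm))) _
    | zero => rw [map_zero]; exact zero_mem _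
    | add y w _ _ hy hw => rw [map_add]; exact add_mem hy hw
    | smul c y _ hy => rw [smul_eq_mul, map_mul]; exact Ideal.mul_mem_left _ _ hy
  have h2 := key _ hmem
  rw [map_natCast] at h2
  exact h m hm h2

/-- A fixed-point-free module in characteristic coprime to the order forces norm-freeness. -/
theorem normFree_of_rep {A : Type*} [Group A] [Finite A] {r : ℕ} [Fact r.Prime] (hrA : ¬ r ∣ Nat.card A)
    {V : Type*} [AddCommGroup V] [Module (ZMod r) V] [Nontrivial V] (ρ : Representation (ZMod r) A V)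
    (hρ : ∀ a : A, a ≠ 1 → ∀ v : V, ρ a v = v → v = 0) : NormFree A := by
  refine fun m hm => natCast_notMem_normIdeal hrA (fun h1 => ?_) m hm
  obtain ⟨v, hv⟩ := exists_ne (0 : V)
  have hker := normIdeal_le_ker ρ.asAlgebraHom.toRingHom (fun a ha => ?_) h1
  · apply hv
    have h2 : ρ.asAlgebraHom (1 : MonoidAlgebra (ZMod r) A) = 0 := hker
    rw [map_one] at h2
    simpa using LinearMap.congr_fun h2 v
  · show ρ.asAlgebraHom (normSum (ZMod r) A a) = 0
    rw [normSum, map_sum]
    simp only [Representation.asAlgebraHom_of, map_pow]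
    refine LinearMap.ext fun w => hρ a ha _ ?_
    have h3 : ρ a * (∑ i ∈ Finset.range (orderOf a), ρ a ^ i) = ∑ i ∈ Finset.range (orderOf a), ρ a ^ i := by
      rw [Finset.mul_sum]
      simp only [← pow_succ']
      have h4 := Finset.sum_range_succ (fun i => ρ a ^ i) (orderOf a)
      have h5 : ρ a ^ orderOf a = 1 := by rw [← map_pow, pow_orderOf_eq_one, map_one]
      rw [Finset.sum_range_succ', h5, pow_zero] at h4
      exact add_right_cancel h4
    exact LinearMap.congr_fun h3 w

/-- A group acting fixed-point-freely by additive maps on a module over `F_r` is norm-free. -/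
theorem normFree_of_zmodEnd {A : Type*} [Group A] [Finite A] {r : ℕ} [Fact r.Prime] {V : Type*}
    [AddCommGroup V] [Module (ZMod r) V] [Nontrivial V] (hrA : ¬ r ∣ Nat.card A)
    (σ : A → (V →+ V)) (h1 : ∀ v, σ 1 v = v) (hmul : ∀ x y v, σ (x * y) v = σ x (σ y v))
    (hfpf : ∀ x : A, x ≠ 1 → ∀ v, σ x v = v → v = 0) : NormFree A := by
  let φ : A → Module.End (ZMod r) V := fun x => (σ x).toZModLinearMap r
  let ρ : A →* Module.End (ZMod r) V :=
    { toFun := φ
      map_one' := LinearMap.ext fun v => h1 v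
      map_mul' := fun x y => LinearMap.ext fun v => hmul x y v }
  exact normFree_of_rep (V := V) hrA ρ hfpf

/-- A group acting fixed-point-freely by conjugation on an elementary abelian subgroup of coprime
exponent is norm-free. -/
theorem normFree_of_conj {G : Type*} [Group G] {A : Type*} [Group A] [Finite A] {r : ℕ} [Fact r.Prime]
    {f : A →* G} (hrA : ¬ r ∣ Nat.card A) (W : Subgroup G) (hcomm : ∀ a ∈ W, ∀ b ∈ W, a * b = b * a)
    (hexp : ∀ a ∈ W, a ^ r = 1) (hne : ∃ w ∈ W, w ≠ 1)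
    (hinv : ∀ (x : A) (w : G), w ∈ W → f x * w * (f x)⁻¹ ∈ W)
    (hfpf : ∀ x : A, x ≠ 1 → ∀ w ∈ W, f x * w = w * f x → w = 1) : NormFree A := by
  letI : CommGroup W :=
    { (inferInstance : Group W) with mul_comm := fun a b => Subtype.ext (hcomm _ a.2 _ b.2) }
  haveI : Nontrivial (Additive W) := by
    obtain ⟨w, hw, hw1⟩ := hne
    exact ⟨⟨Additive.ofMul ⟨w, hw⟩, 0, fun e => hw1 (congrArg (fun z : Additive W => (z.toMul : G)) e)⟩⟩
  let τ : A → (W →* W) := fun x => MonoidHom.mk' (fun w => ⟨_, hinv x w w.2⟩) fun a b => Subtype.ext (by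
    show f x * ((a : G) * (b : G)) * (f x)⁻¹ = f x * (a : G) * (f x)⁻¹ * (f x * (b : G) * (f x)⁻¹)
    group)
  refine @normFree_of_zmodEnd A _ _ r _ (Additive W) _
    (AddCommGroup.zmodModule fun v => Additive.toMul.injective (Subtype.ext (hexp _ v.toMul.2))) _ hrA
    (fun x => MonoidHom.toAdditive (τ x))
    (fun v => Additive.toMul.injective (Subtype.ext ?_))
    (fun x y v => Additive.toMul.injective (Subtype.ext ?_)) fun x hx v hv => ?_
  · show f 1 * (v.toMul : G) * (f 1)⁻¹ = v.toMul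
    simp
  · show f (x * y) * (v.toMul : G) * (f (x * y))⁻¹ = f x * (f y * (v.toMul : G) * (f y)⁻¹) * (f x)⁻¹
    simp [mul_assoc]
  · have h1 : f x * (v.toMul : G) * (f x)⁻¹ = v.toMul :=
      congrArg (fun z : Additive W => (z.toMul : G)) hv
    exact Additive.toMul.injective (Subtype.ext (hfpf x hx _ v.toMul.2 (mul_inv_eq_iff_eq_mul.1 h1)))

/-- A Frobenius complement is norm-free. -/
theorem normFree_of_isFrobeniusComplement {G : Type*} [Group G] [Finite G] {H : Subgroup G}
    (hH : Cfsg.IsFrobeniusComplement H) : NormFree H := by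
  obtain ⟨K, -, hKn, hc⟩ := CfsgLib.Frobenius.exists_kernel hH
  haveI := hKn
  have hindex : K.index = Nat.card H := hc.symm.index_eq_card
  have hHidx : H.index = Nat.card K := hc.index_eq_card
  have hcop : (Nat.card K).Coprime K.index := by
    rw [hindex, ← hHidx]; exact (CfsgLib.Frobenius.coprime_card_index hH).symm
  have hfpfH : ∀ h ∈ H, h ≠ 1 → ∀ k ∈ K, h * k = k * h → k = 1 := by
    refine (CfsgLib.Frobenius.isFrobeniusComplement_iff_fpf K H hc ?_ hH.1).1 hH
    intro h
    rw [h, Subgroup.card_bot] at hHidx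
    exact hH.2.1 (Subgroup.index_eq_one.1 hHidx)
  have hK1 : 1 < Nat.card K := hHidx ▸ CfsgLib.Frobenius.one_lt_index hH
  obtain ⟨r, hr, hrK⟩ := Nat.exists_prime_and_dvd hK1.ne'
  haveI : Fact r.Prime := ⟨hr⟩
  let R : Sylow r K := default
  set M := Subgroup.normalizer (((R : Subgroup K).map K.subtype : Subgroup G) : Set G) with hM
  have hMK : M ⊔ K = ⊤ := Sylow.normalizer_sup_eq_top R
  -- a complement of `M ⊓ K` inside `M`
  haveI : (K.subgroupOf M).Normal := inferInstance
  have hdvd1 : Nat.card (K.subgroupOf M) ∣ Nat.card K :=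
    Subgroup.card_comap_dvd_of_injective K M.subtype M.subtype_injective
  have hidx : (K.subgroupOf M).index = K.index := by
    show K.relIndex M = K.index
    rw [← Subgroup.relIndex_sup_right, hMK, Subgroup.relIndex_top_right]
  obtain ⟨H', hH'⟩ := Subgroup.exists_right_complement'_of_coprime (N := K.subgroupOf M)
    (Nat.Coprime.coprime_dvd_left hdvd1 (hidx ▸ hcop))
  have hdisj : ∀ x : H', ((x : M) : G) ∈ K → x = 1 := fun x hx =>
    Subtype.ext (Subgroup.disjoint_def.1 hH'.disjoint (Subgroup.mem_subgroupOf.2 hx) x.2)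
  -- `H'` acts fixed-point-freely on `K`
  have hfpf : ∀ x : H', x ≠ 1 → ∀ k ∈ K, ((x : M) : G) * k = k * ((x : M) : G) → k = 1 := by
    intro x hx k hk hcomm
    obtain ⟨k₀, hk₀, h, hh, he⟩ := CfsgLib.Frobenius.exists_eq_mul_of_sup_eq_top K H hc.sup_eq_top ((x : M) : G)
    have h1 : h ≠ 1 := fun h1 => hx (hdisj x (by rw [he, h1, mul_one]; exact hk₀))
    obtain ⟨a, ha, hae⟩ := CfsgLib.Frobenius.exists_conj_eq K H hfpfH hh h1 hk₀
    rw [he, ← hae] at hcomm
    have h2 := hfpfH h hh h1 (a⁻¹ * k * a) (K.mul_mem (K.mul_mem (K.inv_mem ha) hk) ha) (by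
      calc h * (a⁻¹ * k * a) = a⁻¹ * (a * h * a⁻¹ * k) * a := by group
        _ = a⁻¹ * (k * (a * h * a⁻¹)) * a := by rw [hcomm]
        _ = a⁻¹ * k * a * h := by group)
    have h3 := congrArg (fun z => a * z * a⁻¹) h2
    simpa [mul_assoc] using h3
  -- the elementary abelian module inside the centre of `R`
  let R₀ : Subgroup G := (R : Subgroup K).map K.subtype
  let W : Subgroup G :=
    { carrier := {x | x ∈ R₀ ∧ (∀ y ∈ R₀, x * y = y * x) ∧ x ^ r = 1}
      one_mem' := ⟨R₀.one_mem, fun y _ => by rw [one_mul, mul_one], one_pow _⟩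
      inv_mem' := fun {x} hx => ⟨R₀.inv_mem hx.1, fun y hy => by
        have := hx.2.1 y hy
        exact (Commute.inv_left this).eq, by rw [inv_pow, hx.2.2, inv_one]⟩
      mul_mem' := fun {x y} hx hy => ⟨R₀.mul_mem hx.1 hy.1, fun z hz =>
        ((show Commute x z from hx.2.1 z hz).mul_left (hy.2.1 z hz)).eq, by
        rw [(show Commute x y from hx.2.1 y hy.1).mul_pow, hx.2.2, hy.2.2, one_mul]⟩ }
  have hWK : W ≤ K := fun x hx => Subgroup.map_subtype_le _ hx.1
  haveI : Nontrivial R₀ := by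
    rw [Subgroup.nontrivial_iff_ne_bot, ne_eq, Subgroup.map_eq_bot_iff_of_injective _ K.subtype_injective]
    exact R.ne_bot_of_dvd_card hrK
  have hWne : ∃ w ∈ W, w ≠ 1 := by
    have hR₀ : IsPGroup r R₀ := R.isPGroup'.map K.subtype
    haveI := hR₀.center_nontrivial
    have hd : r ∣ Nat.card (Subgroup.center R₀) := by
      obtain ⟨n, hn, hcn⟩ := (hR₀.to_subgroup (Subgroup.center R₀)).nontrivial_iff_card.1 inferInstance
      exact hcn ▸ dvd_pow_self r hn.ne'
    obtain ⟨z, hz⟩ := exists_prime_orderOf_dvd_card' r hd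
    refine ⟨((z : R₀) : G), ⟨(z : R₀).2, fun y hy => congrArg Subtype.val (Subgroup.mem_center_iff.1 z.2 ⟨y, hy⟩).symm, ?_⟩, ?_⟩
    · have h := pow_orderOf_eq_one z
      rw [hz] at h
      simpa using congrArg (fun w : Subgroup.center R₀ => ((w : R₀) : G)) h
    · intro h
      have : z = 1 := Subtype.ext (Subtype.ext h)
      rw [this, orderOf_one] at hz
      exact hr.one_lt.ne hz
  have hWM : ∀ (x : M) (w : G), w ∈ W → (x : G) * w * (x : G)⁻¹ ∈ W := by
    intro x w hw
    have hxR : ∀ y, y ∈ R₀ ↔ (x : G) * y * (x : G)⁻¹ ∈ R₀ := Subgroup.mem_normalizer_iff.1 x.2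
    refine ⟨(hxR w).1 hw.1, fun y hy => ?_, by rw [conj_pow, hw.2.2, mul_one, mul_inv_cancel]⟩
    have h1 := hw.2.1 ((x : G)⁻¹ * y * x) ((hxR _).2 (by simpa [mul_assoc] using hy))
    calc (x : G) * w * (x : G)⁻¹ * y = x * (w * ((x : G)⁻¹ * y * x)) * (x : G)⁻¹ := by group
      _ = x * ((x : G)⁻¹ * y * x * w) * (x : G)⁻¹ := by rw [h1]
      _ = y * ((x : G) * w * (x : G)⁻¹) := by group
  have hrH' : ¬ r ∣ Nat.card H' := by
    intro h
    rw [← hH'.symm.index_eq_card, hidx, hindex] at h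
    exact hr.ne_one (Nat.eq_one_of_dvd_coprimes (hindex ▸ hcop : (Nat.card K).Coprime (Nat.card H)) hrK h)
  have hnf : NormFree H' := normFree_of_conj (f := M.subtype.comp H'.subtype) hrH' W
    (fun a ha b hb => ha.2.1 b hb.1) (fun a ha => ha.2.2) hWne (fun x w hw => hWM x w hw)
    (fun x hx w hw hc => hfpf x hx w (hWK hw) hc)
  -- `H` embeds in `H'`
  let f : H' →* G ⧸ K := (QuotientGroup.mk' K).comp (M.subtype.comp H'.subtype)
  have hf : Function.Injective f := (injective_iff_map_eq_one f).2 fun x hx =>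
    hdisj x ((QuotientGroup.eq_one_iff _).1 hx)
  have hcard : Nat.card H' = Nat.card (G ⧸ K) := by
    rw [← hH'.symm.index_eq_card, hidx]; rfl
  let e : H' ≃* G ⧸ K := MulEquiv.ofBijective f ((Nat.bijective_iff_injective_and_card f).2 ⟨hf, hcard⟩)
  refine hnf.of_injective (e.symm.toMonoidHom.comp ((QuotientGroup.mk' K).comp H.subtype)) ?_
  refine e.symm.injective.comp ((injective_iff_map_eq_one _).2 fun h hh => ?_)
  exact Subtype.ext (Subgroup.disjoint_def.1 hc.disjoint ((QuotientGroup.eq_one_iff _).1 hh) h.2)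

/-- A product of norm-free groups of coprime orders is norm-free. -/
theorem NormFree.prod {A B : Type*} [Group A] [Finite A] [Group B] [Finite B] (hA : NormFree A)
    (hB : NormFree B) (hcop : (Nat.card A).Coprime (Nat.card B)) : NormFree (A × B) := by
  haveI : NeZero (Nat.card A * Nat.card B) := ⟨mul_ne_zero Nat.card_pos.ne' Nat.card_pos.ne'⟩
  obtain ⟨ℓ, hℓ, hℓAB⟩ := exists_prime_not_dvd (Nat.card A * Nat.card B)
  haveI : Fact ℓ.Prime := ⟨hℓ⟩
  obtain ⟨ρ, hV, hρ⟩ := exists_fpf_rep_of_normFree hA ℓ (fun h => hℓAB (h.mul_right _))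
  obtain ⟨σ, hW, hσ⟩ := exists_fpf_rep_of_normFree hB ℓ (fun h => hℓAB (h.mul_left _))
  haveI := hV
  haveI := hW
  let V := MonoidAlgebra (ZMod ℓ) A ⧸ normIdeal (ZMod ℓ) A
  let W := MonoidAlgebra (ZMod ℓ) B ⧸ normIdeal (ZMod ℓ) B
  let τ : Representation (ZMod ℓ) (A × B) (V ⊗[ZMod ℓ] W) :=
    { toFun := fun x => TensorProduct.map (ρ x.1) (σ x.2)
      map_one' := by simp only [Prod.fst_one, Prod.snd_one, map_one]; exact TensorProduct.map_one
      map_mul' := fun x y => by
        simp only [Prod.fst_mul, Prod.snd_mul, map_mul]; exact TensorProduct.map_mul _ _ _ _ }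
  have hτ1 : ∀ a : A, a ≠ 1 → ∀ z : V ⊗[ZMod ℓ] W, τ (a, 1) z = z → z = 0 := by
    intro a ha z hz
    have hinj : Function.Injective ((ρ a - 1).rTensor W) :=
      Module.Flat.rTensor_preserves_injective_linearMap _ (hρ a ha)
    refine hinj ?_
    rw [map_zero, LinearMap.rTensor_sub, LinearMap.sub_apply]
    have h1 : τ (a, 1) z = (ρ a).rTensor W z := by
      show TensorProduct.map (ρ a) (σ 1) z = _
      rw [map_one]; rfl
    rw [← h1, hz]
    show z - ((LinearMap.id : V →ₗ[ZMod ℓ] V).rTensor W) z = 0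
    rw [LinearMap.rTensor_id, LinearMap.id_apply, sub_self]
  have hτ2 : ∀ b : B, b ≠ 1 → ∀ z : V ⊗[ZMod ℓ] W, τ (1, b) z = z → z = 0 := by
    intro b hb z hz
    have hinj : Function.Injective ((σ b - 1).lTensor V) :=
      Module.Flat.lTensor_preserves_injective_linearMap _ (hσ b hb)
    refine hinj ?_
    rw [map_zero, LinearMap.lTensor_sub, LinearMap.sub_apply]
    have h1 : τ (1, b) z = (σ b).lTensor V z := by
      show TensorProduct.map (ρ 1) (σ b) z = _
      rw [map_one]; rfl
    rw [← h1, hz]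
    show z - ((LinearMap.id : W →ₗ[ZMod ℓ] W).lTensor V) z = 0
    rw [LinearMap.lTensor_id, LinearMap.id_apply, sub_self]
  haveI : Nontrivial (V ⊗[ZMod ℓ] W) :=
    Module.nontrivial_of_finrank_pos (R := ZMod ℓ) (by
      haveI := finite_quotient_normIdeal (A := A) ℓ
      haveI := finite_quotient_normIdeal (A := B) ℓ
      rw [Module.finrank_tensorProduct]
      exact Nat.mul_pos Module.finrank_pos Module.finrank_pos)
  refine normFree_of_rep (by rw [Nat.card_prod]; exact hℓAB) τ fun x hx z hz => ?_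
  have hpow : ∀ n : ℕ, τ (x ^ n) z = z := by
    intro n
    induction n with
    | zero => rw [pow_zero, map_one]; rfl
    | succ n ih => rw [pow_succ, map_mul, Module.End.mul_apply, hz, ih]
  by_cases h1 : x.1 = 1
  · refine hτ2 x.2 (fun h2 => hx (Prod.ext h1 h2)) z ?_
    have := hpow 1
    rwa [pow_one, show x = (1, x.2) from Prod.ext h1 rfl] at this
  · refine hτ1 (x.1 ^ orderOf x.2) (fun h2 => h1 ?_) z ?_
    · rw [← orderOf_eq_one_iff]
      exact Nat.eq_one_of_dvd_coprimes (hcop.coprime_dvd_right (orderOf_dvd_natCard x.2))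
        (orderOf_dvd_natCard _) (orderOf_dvd_of_pow_eq_one h2)
    · have := hpow (orderOf x.2)
      rwa [show x ^ orderOf x.2 = (x.1 ^ orderOf x.2, 1) from Prod.ext rfl (by rw [Prod.pow_snd, pow_orderOf_eq_one])] at this

end CfsgLib.FCRep

namespace CfsgLib.FCRep

/-- A norm-free group has no subgroup `C_r × C_r`; for products: the orders are coprime. -/
theorem NormFree.coprime_card {A B : Type*} [Group A] [Finite A] [Group B] [Finite B]
    (h : NormFree (A × B)) : (Nat.card A).Coprime (Nat.card B) := by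
  by_contra hc
  obtain ⟨r, hr, hrA, hrB⟩ := Nat.Prime.not_coprime_iff_dvd.1 hc
  haveI : Fact r.Prime := ⟨hr⟩
  obtain ⟨a₀, ha₀⟩ := exists_prime_orderOf_dvd_card' r hrA
  obtain ⟨b₀, hb₀⟩ := exists_prime_orderOf_dvd_card' r hrB
  let a : A × B := (a₀, 1)
  let b : A × B := (1, b₀)
  have hoa : orderOf a = r := by rw [Prod.orderOf_mk, orderOf_one, ha₀, Nat.lcm_one_right]
  have hob : orderOf b = r := by rw [Prod.orderOf_mk, orderOf_one, hb₀, Nat.lcm_one_left]
  have hcab : Commute a b := Prod.ext (by simp [a, b]) (by simp [a, b])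
  let S := fun x : A × B => MonoidAlgebra.of ℤ (A × B) x
  refine h r hr.ne_zero ?_
  have ha1 : a ≠ 1 := fun e => hr.ne_one (hoa.symm.trans (by rw [e, orderOf_one]))
  have hb1 : b ≠ 1 := fun e => hr.ne_one (hob.symm.trans (by rw [e, orderOf_one]))
  have hab : ∀ j : ℕ, a * b ^ j ≠ 1 ∧ orderOf (a * b ^ j) = r := by
    intro j
    have h1 : a * b ^ j ≠ 1 := fun e => ha1 (by
      have := congrArg Prod.fst e
      exact Prod.ext (by simpa [a, b] using this) rfl)
    refine ⟨h1, orderOf_eq_prime ?_ h1⟩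
    rw [(hcab.pow_right j).mul_pow, ← pow_mul, mul_comm, pow_mul, ← hoa, pow_orderOf_eq_one, hoa, ← hob,
      pow_orderOf_eq_one, one_pow, one_mul]
  have key : ∑ j ∈ Finset.range r, normSum ℤ (A × B) (a * b ^ j) =
      (r : MonoidAlgebra ℤ (A × B)) + (normSum ℤ (A × B) a - 1) * normSum ℤ (A × B) b := by
    simp only [normSum, (hab _).2, hoa, hob]
    rw [Finset.sum_comm]
    obtain ⟨r', hr'⟩ : ∃ r', r = r' + 1 := ⟨r - 1, by have := hr.pos; omega⟩
    rw [hr', Finset.sum_range_succ', Finset.sum_range_succ' (fun i => MonoidAlgebra.of ℤ (A × B) (a ^ i))]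
    simp only [pow_zero, map_one, Finset.sum_const, Finset.card_range, nsmul_one, add_sub_cancel_right]
    rw [add_comm, Finset.sum_mul, add_right_inj]
    refine Finset.sum_congr rfl fun i hi => ?_
    rw [Finset.mul_sum, ← hr']
    simp only [← map_mul]
    have hir : (i + 1) % r ≠ 0 := by
      have := Finset.mem_range.1 hi
      rw [Nat.mod_eq_of_lt (by omega)]
      omega
    -- `j ↦ (i+1) j` permutes residues mod `r`
    refine Finset.sum_bij (fun j _ => (i + 1) * j % r) (fun j _ => Finset.mem_range.2 (Nat.mod_lt _ hr.pos)) ?_ ?_ ?_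
    · intro j hj k hk e
      have e2 : ((i + 1 : ℕ) : ZMod r) * (j : ZMod r) = ((i + 1 : ℕ) : ZMod r) * (k : ZMod r) := by
        rw [← Nat.cast_mul, ← Nat.cast_mul]; exact (ZMod.natCast_eq_natCast_iff' _ _ _).2 e
      have hne : ((i + 1 : ℕ) : ZMod r) ≠ 0 := fun e0 =>
        hir (Nat.mod_eq_zero_of_dvd ((ZMod.natCast_eq_zero_iff _ _).1 e0) |>.trans rfl)
      have e3 := (ZMod.natCast_eq_natCast_iff' _ _ _).1 (mul_left_cancel₀ hne e2)
      rwa [Nat.mod_eq_of_lt (Finset.mem_range.1 hj), Nat.mod_eq_of_lt (Finset.mem_range.1 hk)] at e3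
    · intro k hk
      have hne : ((i + 1 : ℕ) : ZMod r) ≠ 0 := fun e0 =>
        hir (Nat.mod_eq_zero_of_dvd ((ZMod.natCast_eq_zero_iff _ _).1 e0))
      refine ⟨((((i + 1 : ℕ) : ZMod r))⁻¹ * (k : ZMod r)).val, Finset.mem_range.2 (ZMod.val_lt _), ?_⟩
      rw [← ZMod.val_natCast, Nat.cast_mul, ZMod.natCast_zmod_val, ← mul_assoc, mul_inv_cancel₀ hne, one_mul,
        ZMod.val_natCast, Nat.mod_eq_of_lt (Finset.mem_range.1 hk)]
    · intro j hj
      congr 1
      rw [(hcab.pow_right j).mul_pow, ← pow_mul, mul_comm j (i + 1)]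
      congr 1
      conv_rhs => rw [← hob, pow_mod_orderOf]
  have hI := normIdeal ℤ (A × B)
  have h1 : ∑ j ∈ Finset.range r, normSum ℤ (A × B) (a * b ^ j) ∈ normIdeal ℤ (A × B) :=
    Ideal.sum_mem _ fun j _ => by simpa using normSum_mul_mem (k := ℤ) (hab j).1 1
  have h2 : (normSum ℤ (A × B) a - 1) * normSum ℤ (A × B) b ∈ normIdeal ℤ (A × B) :=
    Ideal.mul_mem_left _ _ (by simpa using normSum_mul_mem (k := ℤ) hb1 1)
  rw [key] at h1
  simpa using Submodule.sub_mem _ h1 h2

end CfsgLib.FCRep
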